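import Mathlib
import Cfsg.Prelude.Def_GeometricClasses
import Cfsg.Prelude.Def_ClassicalGeometry

/-!
# Project TSO (S5980): `Sp_{2d}(q)`, `q` odd, and the tensor subgroups `Sp_a(q) ⊗ O_b(q)`

Interface file: definitions and package Props only (no proofs).

Notation: `M = A ⊗ₖ B` (Kronecker product, index `Fin a × Fin b`), `rank` = `Matrix.rank`,
`i = orderOf (q : ZMod r)`, `s` = the least `s ≥ 1` with `r ∣ q ^ (2 * s) - 1`.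
-/

set_option autoImplicit false

namespace Cfsg.Agent.Lib.Helper57.TSO

open Matrix
open scoped Kronecker MatrixGroups

universe u

/-- The diagonal matrix `diag(ε, ε)` on `Fin d ⊕ Fin d`. -/
def Dmat {F : Type u} [Field F] (d : ℕ) (ε : Fin d → F) :
    Matrix (Fin d ⊕ Fin d) (Fin d ⊕ Fin d) F :=
  Matrix.diagonal (Sum.elim ε ε)

/-- The matrix `[[0, -κ⁻¹], [κ, 0]]` (blocks diagonal): `e_j ↦ κ_j f_j`, `f_j ↦ -κ_j⁻¹ e_j`. -/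
def Jmat {F : Type u} [Field F] (d : ℕ) (κ : Fin d → F) :
    Matrix (Fin d ⊕ Fin d) (Fin d ⊕ Fin d) F :=
  Matrix.fromBlocks 0 (Matrix.diagonal fun j => -(κ j)⁻¹) (Matrix.diagonal κ) 0

/-! ## Kronecker rank packages (pure linear algebra) -/

/-- [RANK1] `a * rank N ≤ rank (1 ⊗ N)`. -/
def PkgRank1 : Prop :=
  ∀ {F : Type u} [Field F] (a b : ℕ) (N : Matrix (Fin b) (Fin b) F),
    a * N.rank ≤ ((1 : Matrix (Fin a) (Fin a) F) ⊗ₖ N).rank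

/-- [RANK1'] `b * rank N ≤ rank (N ⊗ 1)`. -/
def PkgRank1' : Prop :=
  ∀ {F : Type u} [Field F] (a b : ℕ) (N : Matrix (Fin a) (Fin a) F),
    b * N.rank ≤ (N ⊗ₖ (1 : Matrix (Fin b) (Fin b) F)).rank

/-- [RANK3] if `v, A v, A² v` are linearly independent and `B` is invertible then
`2 b ≤ rank (A ⊗ B - 1)`. -/
def PkgRank3 : Prop :=
  ∀ {F : Type u} [Field F] (a b : ℕ) (A : Matrix (Fin a) (Fin a) F)
    (B : Matrix (Fin b) (Fin b) F), B.det ≠ 0 → ∀ v : Fin a → F,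
    (∀ c₀ c₁ c₂ : F, c₀ • v + c₁ • (A *ᵥ v) + c₂ • (A *ᵥ (A *ᵥ v)) = 0 →
      c₀ = 0 ∧ c₁ = 0 ∧ c₂ = 0) →
    2 * b ≤ (A ⊗ₖ B - 1).rank

/-- [RANK3'] if `w, B w, B² w` are linearly independent and `A` is invertible then
`2 a ≤ rank (A ⊗ B - 1)`. -/
def PkgRank3' : Prop :=
  ∀ {F : Type u} [Field F] (a b : ℕ) (A : Matrix (Fin a) (Fin a) F)
    (B : Matrix (Fin b) (Fin b) F), A.det ≠ 0 → ∀ w : Fin b → F,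
    (∀ c₀ c₁ c₂ : F, c₀ • w + c₁ • (B *ᵥ w) + c₂ • (B *ᵥ (B *ᵥ w)) = 0 →
      c₀ = 0 ∧ c₁ = 0 ∧ c₂ = 0) →
    2 * a ≤ (A ⊗ₖ B - 1).rank

/-- [ORD] a matrix `B ≠ 1` with `B ^ r = 1`, `r ≠ p` prime: `ord_r(q) ≤ rank (B - 1)`. -/
def PkgOrd : Prop :=
  ∀ {F : Type u} [Field F] [Fintype F] {p : ℕ} [Fact p.Prime] [CharP F p] {q : ℕ},
    Fintype.card F = q → ∀ (n r : ℕ) [Fact r.Prime], r ≠ p →
    ∀ B : Matrix (Fin n) (Fin n) F, B ^ r = 1 → B ≠ 1 →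
    orderOf (q : ZMod r) ≤ (B - 1).rank

/-- [LOC] `A` invertible, not scalar, `A ^ r` scalar, `r ≠ p`, `r ∤ q² - 1`: some `v` has
`v, A v, A² v` linearly independent. -/
def PkgLoc : Prop :=
  ∀ {F : Type u} [Field F] [Fintype F] {p : ℕ} [Fact p.Prime] [CharP F p] {q : ℕ},
    Fintype.card F = q → ∀ (n r : ℕ) [Fact r.Prime], r ≠ p → ¬ r ∣ q ^ 2 - 1 →
    ∀ (A : Matrix (Fin n) (Fin n) F), A.det ≠ 0 → ∀ α : F, A ^ r = α • (1 : Matrix (Fin n) (Fin n) F) →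
    (∀ c : F, A ≠ c • (1 : Matrix (Fin n) (Fin n) F)) →
    ∃ v : Fin n → F, ∀ c₀ c₁ c₂ : F,
      c₀ • v + c₁ • (A *ᵥ v) + c₂ • (A *ᵥ (A *ᵥ v)) = 0 → c₀ = 0 ∧ c₁ = 0 ∧ c₂ = 0

/-- [PAR] an orthogonal matrix of odd order has `rank (B - 1)` even. -/
def PkgPar : Prop :=
  ∀ {F : Type u} [Field F], (2 : F) ≠ 0 → ∀ (n : ℕ) (S B : Matrix (Fin n) (Fin n) F),
    Sᵀ = S → S.det ≠ 0 → Bᵀ * S * B = S → ∀ r : ℕ, Odd r → B ^ r = 1 → Even (B - 1).rank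

/-- [KEY] no Kronecker product `A ⊗ B ≠ 1` of order `r` (odd, `≠ p`) preserving `G₁ ⊗ G₂`
(`G₂` symmetric non-degenerate) has `rank (A ⊗ B - 1) ≤ 2 s`. -/
def PkgKey : Prop :=
  ∀ {F : Type u} [Field F] [Fintype F] {p : ℕ} [Fact p.Prime] [CharP F p] {q : ℕ},
    Fintype.card F = q → Odd q → ∀ (a b : ℕ), Even a → 2 ≤ a → 3 ≤ b →
    ∀ (r : ℕ) [Fact r.Prime], r ≠ 2 → r ≠ p → ∀ s : ℕ, 1 ≤ s → r ∣ q ^ (2 * s) - 1 →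
    (∀ s', 1 ≤ s' → s' < s → ¬ r ∣ q ^ (2 * s') - 1) →
    ∀ (A : Matrix (Fin a) (Fin a) F) (B : Matrix (Fin b) (Fin b) F), A.det ≠ 0 → B.det ≠ 0 →
    ∀ (G₁ : Matrix (Fin a) (Fin a) F) (G₂ : Matrix (Fin b) (Fin b) F), G₁ ≠ 0 → G₂ᵀ = G₂ →
    G₂.det ≠ 0 → (Aᵀ * G₁ * A) ⊗ₖ (Bᵀ * G₂ * B) = G₁ ⊗ₖ G₂ →
    (A ⊗ₖ B) ^ r = 1 → A ⊗ₖ B ≠ 1 → (A ⊗ₖ B - 1).rank ≤ 2 * s → False

/-! ## Forward direction: witnesses, numerics, transport -/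

/-- [WITT] a transvection in `Sp`. -/
def PkgWitT : Prop :=
  ∀ {F : Type u} [Field F] [Fintype F] {p : ℕ} [Fact p.Prime] [CharP F p] (d : ℕ), 1 ≤ d →
    ∃ x : GL (Fin d ⊕ Fin d) F, x ∈ Cfsg.spGL d F ∧
      (x : Matrix (Fin d ⊕ Fin d) (Fin d ⊕ Fin d) F) ^ p = 1 ∧
      (∀ z : F, (x : Matrix (Fin d ⊕ Fin d) (Fin d ⊕ Fin d) F) ≠ z • 1) ∧
      ((x : Matrix (Fin d ⊕ Fin d) (Fin d ⊕ Fin d) F) - 1).rank ≤ 1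

/-- [WITI] an involution of `Sp` with a 2-dimensional `(-1)`-eigenspace. -/
def PkgWitI : Prop :=
  ∀ {F : Type u} [Field F] [Fintype F], (2 : F) ≠ 0 → ∀ (d : ℕ), 2 ≤ d →
    ∃ x : GL (Fin d ⊕ Fin d) F, x ∈ Cfsg.spGL d F ∧
      (x : Matrix (Fin d ⊕ Fin d) (Fin d ⊕ Fin d) F) ^ 2 = 1 ∧
      (∀ z : F, (x : Matrix (Fin d ⊕ Fin d) (Fin d ⊕ Fin d) F) ≠ z • 1) ∧
      ((x : Matrix (Fin d ⊕ Fin d) (Fin d ⊕ Fin d) F) - 1).rank ≤ 2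

/-- [WITR] an element of order `r` of `Sp` supported on a `2 s`-dimensional block. -/
def PkgWitR : Prop :=
  ∀ {F : Type u} [Field F] [Fintype F] {p : ℕ} [Fact p.Prime] [CharP F p] {q : ℕ},
    Fintype.card F = q → ∀ (d r : ℕ) [Fact r.Prime], r ≠ 2 → r ≠ p → ∀ s : ℕ, 1 ≤ s → s ≤ d →
    r ∣ q ^ (2 * s) - 1 →
    ∃ x : GL (Fin d ⊕ Fin d) F, x ∈ Cfsg.spGL d F ∧
      (x : Matrix (Fin d ⊕ Fin d) (Fin d ⊕ Fin d) F) ^ r = 1 ∧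
      (∀ z : F, (x : Matrix (Fin d ⊕ Fin d) (Fin d ⊕ Fin d) F) ≠ z • 1) ∧
      ((x : Matrix (Fin d ⊕ Fin d) (Fin d ⊕ Fin d) F) - 1).rank ≤ 2 * s

/-- [NUM] a prime `r ≠ p` dividing an index in `Sp_{2d}(q)` divides some `q^{2s} - 1`, `s ≤ d`;
take `s` minimal. -/
def PkgNum : Prop :=
  ∀ {F : Type u} [Field F] [Fintype F] {p : ℕ} [Fact p.Prime] [CharP F p] {q : ℕ},
    Fintype.card F = q → ∀ (d : ℕ) (H : Subgroup (GL (Fin d ⊕ Fin d) F)) (r : ℕ) [Fact r.Prime],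
    r ≠ p → r ∣ H.relIndex (Cfsg.spGL d F) →
    ∃ s, 1 ≤ s ∧ s ≤ d ∧ r ∣ q ^ (2 * s) - 1 ∧ ∀ s', 1 ≤ s' → s' < s → ¬ r ∣ q ^ (2 * s') - 1

/-- [TRANS] transport of a conjugate lying in the tensor subgroup to a Kronecker product
preserving `G₁ ⊗ G₂`. -/
def PkgTrans : Prop :=
  ∀ {F : Type u} [Field F] [Fintype F] (d a b : ℕ), 0 < a → 0 < b →
    ∀ (e : (Fin d ⊕ Fin d) ≃ Fin a × Fin b) (P : GL (Fin d ⊕ Fin d) F)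
    (f₁ : (Fin a → F) → (Fin a → F) → F) (f₂ : (Fin b → F) → (Fin b → F) → F),
    Cfsg.Geo.IsSymplecticForm f₁ → Cfsg.Geo.IsSymmetricForm f₂ →
    Cfsg.Geo.IsTensorFormStructure id (Cfsg.sympForm d F) f₁ f₂ e P →
    ∀ x g : GL (Fin d ⊕ Fin d) F, x ∈ Cfsg.spGL d F → g ∈ Cfsg.spGL d F →
    g⁻¹ * x * g ∈ Cfsg.Geo.tensorProductSubgroup a b e P →
    ∃ (A : Matrix (Fin a) (Fin a) F) (B : Matrix (Fin b) (Fin b) F)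
      (G₁ : Matrix (Fin a) (Fin a) F) (G₂ : Matrix (Fin b) (Fin b) F),
      A.det ≠ 0 ∧ B.det ≠ 0 ∧ G₁ ≠ 0 ∧ G₂ᵀ = G₂ ∧ G₂.det ≠ 0 ∧
      (Aᵀ * G₁ * A) ⊗ₖ (Bᵀ * G₂ * B) = G₁ ⊗ₖ G₂ ∧
      (∀ μ : F, ((x : Matrix (Fin d ⊕ Fin d) (Fin d ⊕ Fin d) F) - μ • 1).rank =
        (A ⊗ₖ B - μ • 1).rank) ∧
      (∀ (k : ℕ) (z : F), (x : Matrix (Fin d ⊕ Fin d) (Fin d ⊕ Fin d) F) ^ k = z • 1 →
        (A ⊗ₖ B) ^ k = z • 1)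

/-! ## Backward direction (`r = 2`, `a = 2`) -/

/-- [SCAL] a symplectic matrix with scalar square has square `±1`. -/
def PkgScal : Prop :=
  ∀ {F : Type u} [Field F] [Fintype F] (d : ℕ), 1 ≤ d → ∀ x : GL (Fin d ⊕ Fin d) F,
    x ∈ Cfsg.spGL d F → ∀ z : F,
    (x : Matrix (Fin d ⊕ Fin d) (Fin d ⊕ Fin d) F) ^ 2 = z • 1 → z = 1 ∨ z = -1

/-- [BXP] a symplectic involution is `Sp`-conjugate to a diagonal sign matrix `diag(ε, ε)`. -/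
def PkgBXp : Prop :=
  ∀ {F : Type u} [Field F] [Fintype F], (2 : F) ≠ 0 → ∀ (d : ℕ) (x : GL (Fin d ⊕ Fin d) F),
    x ∈ Cfsg.spGL d F → (x : Matrix (Fin d ⊕ Fin d) (Fin d ⊕ Fin d) F) ^ 2 = 1 →
    ∃ (E : GL (Fin d ⊕ Fin d) F) (ε : Fin d → F), E ∈ Cfsg.spGL d F ∧
      (∀ j, ε j = 1 ∨ ε j = -1) ∧
      (x : Matrix (Fin d ⊕ Fin d) (Fin d ⊕ Fin d) F) * (E : Matrix (Fin d ⊕ Fin d) (Fin d ⊕ Fin d) F) =
        (E : Matrix (Fin d ⊕ Fin d) (Fin d ⊕ Fin d) F) * Dmat d ε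

/-- [BXM] a symplectic matrix with square `-1` is `Sp`-conjugate to `Jmat d κ`, for every choice
of non-zero `κ`. -/
def PkgBXm : Prop :=
  ∀ {F : Type u} [Field F] [Fintype F], Odd (Fintype.card F) → ∀ (d : ℕ)
    (x : GL (Fin d ⊕ Fin d) F), x ∈ Cfsg.spGL d F →
    (x : Matrix (Fin d ⊕ Fin d) (Fin d ⊕ Fin d) F) ^ 2 = -1 →
    ∀ κ : Fin d → F, (∀ j, κ j ≠ 0) →
    ∃ E : GL (Fin d ⊕ Fin d) F, E ∈ Cfsg.spGL d F ∧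
      (x : Matrix (Fin d ⊕ Fin d) (Fin d ⊕ Fin d) F) * (E : Matrix (Fin d ⊕ Fin d) (Fin d ⊕ Fin d) F) =
        (E : Matrix (Fin d ⊕ Fin d) (Fin d ⊕ Fin d) F) * Jmat d κ

/-- [BH] a symplectic frame adapted to the tensor decomposition `F² ⊗ F^d`: all `diag(ε, ε)` and
one `Jmat d κ` are (in this frame) elements of the tensor subgroup. -/
def PkgBH : Prop :=
  ∀ {F : Type u} [Field F] [Fintype F], (2 : F) ≠ 0 → ∀ (d : ℕ)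
    (e : (Fin d ⊕ Fin d) ≃ Fin 2 × Fin d) (P : GL (Fin d ⊕ Fin d) F)
    (f₁ : (Fin 2 → F) → (Fin 2 → F) → F) (f₂ : (Fin d → F) → (Fin d → F) → F),
    Cfsg.Geo.IsSymplecticForm f₁ → Cfsg.Geo.IsSymmetricForm f₂ →
    Cfsg.Geo.IsTensorFormStructure id (Cfsg.sympForm d F) f₁ f₂ e P →
    ∃ (E : GL (Fin d ⊕ Fin d) F) (κ : Fin d → F), E ∈ Cfsg.spGL d F ∧ (∀ j, κ j ≠ 0) ∧
      (∀ ε : Fin d → F, (∀ j, ε j = 1 ∨ ε j = -1) →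
        ∃ y ∈ Cfsg.Geo.tensorProductSubgroup 2 d e P,
          (y : Matrix (Fin d ⊕ Fin d) (Fin d ⊕ Fin d) F) * (E : Matrix (Fin d ⊕ Fin d) (Fin d ⊕ Fin d) F) =
            (E : Matrix (Fin d ⊕ Fin d) (Fin d ⊕ Fin d) F) * Dmat d ε) ∧
      (∃ y ∈ Cfsg.Geo.tensorProductSubgroup 2 d e P,
        (y : Matrix (Fin d ⊕ Fin d) (Fin d ⊕ Fin d) F) * (E : Matrix (Fin d ⊕ Fin d) (Fin d ⊕ Fin d) F) =
          (E : Matrix (Fin d ⊕ Fin d) (Fin d ⊕ Fin d) F) * Jmat d κ)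

end Cfsg.Agent.Lib.Helper57.TSO
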