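import Mathlib
import Cfsg.Agent.Lib.Helper57.TSO.Defs
import Cfsg.Agent.Lib.Helper99.TensorNM
import Cfsg.Agent.Lib.Helper99.Symp
import Cfsg.Agent.Lib.Helper13.Symp

/-!
# Project TSO: package [BH]
-/

set_option autoImplicit false

namespace Cfsg.Agent.Lib.Helper57.TSO

open Matrix
open scoped Kronecker MatrixGroups
open Cfsg.Agent.Lib.Helper99

universe u

section aux

variable {F : Type u} [Field F]

theorem mat_ext_single {ι : Type*} [Fintype ι] [DecidableEq ι] (M N : Matrix ι ι F)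
    (h : ∀ k, M *ᵥ Pi.single k 1 = N *ᵥ Pi.single k 1) : M = N := by
  ext i k
  have := congrFun (h k) i
  rwa [Matrix.mulVec_single_one, Matrix.mulVec_single_one] at this

theorem tens_smul_right {n₁ n₂ : ℕ} (v : Fin n₁ → F) (c : F) (w : Fin n₂ → F) :
    tens v (c • w) = c • tens v w := by
  funext p
  simp only [tens, Pi.smul_apply, smul_eq_mul]
  ring

theorem tens_neg_left {n₁ n₂ : ℕ} (v : Fin n₁ → F) (w : Fin n₂ → F) :
    tens (-v) w = - tens v w := by
  funext p
  simp only [tens, Pi.neg_apply]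
  ring

/-- an orthogonal basis for a non-degenerate symmetric form. -/
theorem exists_orth (h2 : (2 : F) ≠ 0) (d : ℕ) (f₂ : (Fin d → F) → (Fin d → F) → F)
    (hf₂ : Cfsg.Geo.IsSymmetricForm f₂) :
    ∃ w : Module.Basis (Fin d) F (Fin d → F), (∀ j k, j ≠ k → f₂ (w j) (w k) = 0) ∧
      (∀ j, f₂ (w j) (w j) ≠ 0) := by
  classical
  have hb := hf₂.bilinear
  set B : LinearMap.BilinForm F (Fin d → F) :=
    LinearMap.mk₂ F f₂ hb.add_left hb.smul_left hb.add_right hb.smul_right with hB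
  have hBapp : ∀ x y, B x y = f₂ x y := fun x y => rfl
  have hsymm : LinearMap.IsSymm B :=
    LinearMap.isSymm_def.mpr (fun x y => by
      rw [RingHom.id_apply, hBapp, hBapp]; exact hf₂.symm x y)
  haveI : Invertible (2 : F) := invertibleOfNonzero h2
  obtain ⟨v, hv⟩ := LinearMap.BilinForm.exists_orthogonal_basis hsymm
  have hfin : Module.finrank F (Fin d → F) = d := Module.finrank_fin_fun F
  set w := v.reindex (finCongr hfin) with hw
  have hwv : ∀ j, w j = v ((finCongr hfin).symm j) := fun j => by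
    rw [hw, Module.Basis.reindex_apply]
  have horth : ∀ j k, j ≠ k → f₂ (w j) (w k) = 0 := by
    intro j k hjk
    rw [hwv, hwv, ← hBapp]
    exact hv (fun h => hjk ((finCongr hfin).symm.injective h))
  refine ⟨w, horth, ?_⟩
  intro j h0
  obtain ⟨x, hx⟩ := (hf₂.nondegenerate (w j) (w.ne_zero j)).2
  apply hx
  rw [← hBapp, ← w.sum_repr x, map_sum]
  apply Finset.sum_eq_zero
  intro k _
  rw [map_smul, smul_eq_mul, hBapp]
  by_cases hjk : j = k
  · subst hjk
    rw [h0, mul_zero]
  · rw [horth j k hjk, mul_zero]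

end aux

section main

variable {F : Type u} [Field F]

theorem Dmat_single (d : ℕ) (ε : Fin d → F) (k : Fin d ⊕ Fin d) :
    Dmat d ε *ᵥ Pi.single k 1 = (Sum.elim ε ε k) • (Pi.single k 1 : Fin d ⊕ Fin d → F) := by
  unfold Dmat
  rw [Matrix.diagonal_mulVec_single, mul_one]
  funext i
  by_cases hik : i = k
  · subst hik; simp
  · simp [Pi.single_eq_of_ne hik]

theorem Jmat_single_inl (d : ℕ) (κ : Fin d → F) (j : Fin d) :
    Jmat d κ *ᵥ Pi.single (Sum.inl j) 1 = κ j • (Pi.single (Sum.inr j) 1 : Fin d ⊕ Fin d → F) := by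
  funext i
  rw [Matrix.mulVec_single_one]
  rcases i with i | i
  · simp [Jmat]
  · by_cases hij : i = j
    · subst hij; simp [Jmat]
    · simp [Jmat, Matrix.diagonal_apply_ne _ hij, hij]

theorem Jmat_single_inr (d : ℕ) (κ : Fin d → F) (j : Fin d) :
    Jmat d κ *ᵥ Pi.single (Sum.inr j) 1 =
      (-(κ j)⁻¹) • (Pi.single (Sum.inl j) 1 : Fin d ⊕ Fin d → F) := by
  funext i
  rw [Matrix.mulVec_single_one]
  rcases i with i | i
  · by_cases hij : i = j
    · subst hij; simp [Jmat]
    · simp [Jmat, Matrix.diagonal_apply_ne _ hij, hij]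
  · simp [Jmat]

/-- the rotation of `F²`. -/
def A0 (F : Type u) [Field F] : GL (Fin 2) F where
  val := !![0, -1; 1, 0]
  inv := !![0, 1; -1, 0]
  val_inv := by
    ext i j; fin_cases i <;> fin_cases j <;> simp [Matrix.mul_apply, Fin.sum_univ_two]
  inv_val := by
    ext i j; fin_cases i <;> fin_cases j <;> simp [Matrix.mul_apply, Fin.sum_univ_two]

theorem A0_zero : ((A0 F : GL (Fin 2) F) : Matrix (Fin 2) (Fin 2) F) *ᵥ Pi.single 0 1 =
    Pi.single 1 1 := by
  rw [Matrix.mulVec_single_one]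
  funext i; fin_cases i <;> simp [A0]

theorem A0_one : ((A0 F : GL (Fin 2) F) : Matrix (Fin 2) (Fin 2) F) *ᵥ Pi.single 1 1 =
    - Pi.single 0 1 := by
  rw [Matrix.mulVec_single_one]
  funext i; fin_cases i <;> simp [A0]

/-- the sign map in an eigenbasis, as an invertible matrix. -/
theorem exists_sign (d : ℕ) (w : Module.Basis (Fin d) F (Fin d → F)) (ε : Fin d → F)
    (hε : ∀ j, ε j = 1 ∨ ε j = -1) :
    ∃ Bε : GL (Fin d) F, ∀ j, (Bε : Matrix (Fin d) (Fin d) F) *ᵥ w j = ε j • w j := by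
  classical
  set L : (Fin d → F) →ₗ[F] (Fin d → F) := w.constr F (fun j => ε j • w j) with hL
  have hLw : ∀ j, L (w j) = ε j • w j := fun j => by rw [hL, Module.Basis.constr_basis]
  have hLL : L ∘ₗ L = LinearMap.id := by
    apply w.ext
    intro j
    rw [LinearMap.comp_apply, hLw, map_smul, hLw, smul_smul, LinearMap.id_apply]
    rcases hε j with h | h <;> rw [h] <;> simp
  have hmm : LinearMap.toMatrix' L * LinearMap.toMatrix' L = 1 := by
    rw [← LinearMap.toMatrix'_comp, hLL, LinearMap.toMatrix'_id]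
  refine ⟨⟨LinearMap.toMatrix' L, LinearMap.toMatrix' L, hmm, hmm⟩, ?_⟩
  intro j
  show LinearMap.toMatrix' L *ᵥ w j = ε j • w j
  rw [LinearMap.toMatrix'_mulVec, hLw]

/-- **[BH]** -/
theorem pkgBH : PkgBH.{u} := by
  intro F _ _ h2 d e P f₁ f₂ hf₁ hf₂ hS
  classical
  obtain ⟨c, hc, hSc⟩ := hS
  obtain ⟨w, horth, hcj⟩ := exists_orth h2 d f₂ hf₂
  set δ₀ : Fin 2 → F := Pi.single 0 1 with hδ₀
  set δ₁ : Fin 2 → F := Pi.single 1 1 with hδ₁
  set γ : F := f₁ δ₀ δ₁ with hγ
  have hb₁ := hf₁.bilinear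
  have hb₂ := hf₂.bilinear
  have h00 : f₁ δ₀ δ₀ = 0 := hf₁.alternating δ₀
  have h11 : f₁ δ₁ δ₁ = 0 := hf₁.alternating δ₁
  have h10 : f₁ δ₁ δ₀ = -γ := hf₁.skew δ₁ δ₀
  have hγ0 : γ ≠ 0 := by
    intro h0
    have hδ₀ne : δ₀ ≠ 0 := by
      intro h
      have := congrFun h 0
      simp [δ₀] at this
    obtain ⟨x, hx⟩ := (hf₁.nondegenerate δ₀ hδ₀ne).2
    apply hx
    have hxdec : x = x 0 • δ₀ + x 1 • δ₁ := by
      funext i
      fin_cases i <;> simp [δ₀, δ₁]
    rw [hxdec, hb₁.add_right, hb₁.smul_right, hb₁.smul_right, h00, ← hγ, h0]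
    ring
  have hform : ∀ (u u' : Fin 2 → F) (v v' : Fin d → F),
      Cfsg.sympForm d F (tnT e P (tens u v)) (tnT e P (tens u' v')) =
        c * (f₁ u u' * f₂ v v') := by
    intro u u' v v'
    have h1 := hSc (tens u v) (tens u' v')
    have h2' := fog_tens (RingHom.id F) (Cfsg.Geo.gramMatrix f₁) (Cfsg.Geo.gramMatrix f₂)
      u u' v v'
    rw [form_eq_fog hb₁ u u', form_eq_fog hb₂ v v']
    exact h1.trans (congrArg (fun t => c * t) h2')
  set lam : Fin d → F := fun j => -(c * γ * f₂ (w j) (w j))⁻¹ with hlam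
  have hden : ∀ j, c * γ * f₂ (w j) (w j) ≠ 0 := fun j =>
    mul_ne_zero (mul_ne_zero hc hγ0) (hcj j)
  have hlam0 : ∀ j, lam j ≠ 0 := fun j => neg_ne_zero.mpr (inv_ne_zero (hden j))
  set e' : Fin d → (Fin d ⊕ Fin d → F) := fun j => tnT e P (tens δ₀ (w j)) with he'
  set f' : Fin d → (Fin d ⊕ Fin d → F) := fun j => lam j • tnT e P (tens δ₁ (w j)) with hf'
  have hsl : ∀ (a : F) (x y : Fin d ⊕ Fin d → F),
      Cfsg.sympForm d F (a • x) y = a * Cfsg.sympForm d F x y := by
    intro a x y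
    rw [← sympB_apply, ← sympB_apply, map_smul, LinearMap.smul_apply, smul_eq_mul]
  have hsr : ∀ (a : F) (x y : Fin d ⊕ Fin d → F),
      Cfsg.sympForm d F x (a • y) = a * Cfsg.sympForm d F x y := by
    intro a x y
    rw [← sympB_apply, ← sympB_apply, map_smul, smul_eq_mul]
  have p_ee : ∀ j k, Cfsg.sympForm d F (e' j) (e' k) = 0 := by
    intro j k
    rw [he', hform, h00]; ring
  have p_ff : ∀ j k, Cfsg.sympForm d F (f' j) (f' k) = 0 := by
    intro j k
    rw [hf', hsl, hsr, hform, h11]; ring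
  have p_ef : ∀ j k, Cfsg.sympForm d F (e' j) (f' k) = if j = k then -1 else 0 := by
    intro j k
    rw [he', hf', hsr, hform, ← hγ]
    by_cases hjk : j = k
    · subst hjk
      rw [if_pos rfl, hlam]
      have := hden j
      have hfj := hcj j
      field_simp
    · rw [if_neg hjk, horth j k hjk]; ring
  have p_fe : ∀ j k, Cfsg.sympForm d F (f' j) (e' k) = if j = k then 1 else 0 := by
    intro j k
    rw [he', hf', hsl, hform, h10]
    by_cases hjk : j = k
    · subst hjk
      rw [if_pos rfl, hlam]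
      have := hden j
      have hfj := hcj j
      field_simp
    · rw [if_neg hjk, horth j k hjk]; ring
  set Em : Matrix (Fin d ⊕ Fin d) (Fin d ⊕ Fin d) F :=
    Matrix.of (fun i k => Sum.elim e' f' k i) with hEm
  have hcol : ∀ k, Em *ᵥ Pi.single k 1 = Sum.elim e' f' k := by
    intro k
    funext i
    rw [Matrix.mulVec_single_one]
    rfl
  have hEsymp : Em ∈ Matrix.symplecticGroup (Fin d) F := by
    rw [SymplecticGroup.mem_iff']
    ext k l
    have h1 : (Emᵀ * Matrix.J (Fin d) F * Em) k l =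
        Cfsg.sympForm d F (Sum.elim e' f' k) (Sum.elim e' f' l) := by
      rw [← hcol k, ← hcol l]
      unfold Cfsg.sympForm
      rw [Matrix.mulVec_mulVec, ← Matrix.vecMul_transpose Em, ← Matrix.dotProduct_mulVec,
        Matrix.mulVec_mulVec, ← Matrix.mul_assoc, Matrix.mulVec_single_one,
        single_one_dotProduct]
      rfl
    rw [h1]
    rcases k with k | k <;> rcases l with l | l
    · simp [p_ee, Matrix.J]
    · simp only [Sum.elim_inl, Sum.elim_inr, p_ef, Matrix.J, Matrix.fromBlocks_apply₁₂,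
        Matrix.neg_apply, Matrix.one_apply]
      split_ifs <;> simp
    · simp only [Sum.elim_inl, Sum.elim_inr, p_fe, Matrix.J, Matrix.fromBlocks_apply₂₁,
        Matrix.one_apply]
    · simp [p_ff, Matrix.J]
  have hdet : Em.det ≠ 0 := (SymplecticGroup.symplectic_det hEsymp).ne_zero
  set E : GL (Fin d ⊕ Fin d) F := Matrix.GeneralLinearGroup.mkOfDetNeZero Em hdet with hE
  have hEval : (E : Matrix (Fin d ⊕ Fin d) (Fin d ⊕ Fin d) F) = Em := rfl
  have hEmem : E ∈ Cfsg.spGL d F := by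
    intro u v
    exact Cfsg.Agent.Lib.Helper13.sympForm_mulVec_of_mem d hEsymp u v
  refine ⟨E, fun j => (lam j)⁻¹, hEmem, fun j => inv_ne_zero (hlam0 j), ?_, ?_⟩
  · intro ε hε
    obtain ⟨Bε, hBε⟩ := exists_sign d w ε hε
    set kE := kronGL (1 : GL (Fin 2) F) Bε with hkE
    refine ⟨tnPhi e P kE, ?_, ?_⟩
    · rw [tensorProductSubgroup_eq_map]
      exact Subgroup.mem_map_of_mem _ (kronGL_mem _ _)
    · have hact : ∀ (u : Fin 2 → F) (j : Fin d),
          ((tnPhi e P kE : GL (Fin d ⊕ Fin d) F) : Matrix (Fin d ⊕ Fin d) (Fin d ⊕ Fin d) F) *ᵥ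
            tnT e P (tens u (w j)) = ε j • tnT e P (tens u (w j)) := by
        intro u j
        rw [tnPhi_mulVec, hkE, kronGL_val, kron_mulVec_tens, Units.val_one, Matrix.one_mulVec,
          hBε, tens_smul_right, tnT_smul]
      rw [hEval]
      apply mat_ext_single
      intro k
      rw [← Matrix.mulVec_mulVec, ← Matrix.mulVec_mulVec, hcol, Dmat_single,
        Matrix.mulVec_smul, hcol]
      rcases k with j | j
      · simp only [Sum.elim_inl]
        exact hact δ₀ j
      · simp only [Sum.elim_inr]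
        rw [hf', Matrix.mulVec_smul, hact δ₁ j, smul_comm]
  · set kJ := kronGL (A0 F) (1 : GL (Fin d) F) with hkJ
    refine ⟨tnPhi e P kJ, ?_, ?_⟩
    · rw [tensorProductSubgroup_eq_map]
      exact Subgroup.mem_map_of_mem _ (kronGL_mem _ _)
    · have hact : ∀ (u : Fin 2 → F) (j : Fin d),
          ((tnPhi e P kJ : GL (Fin d ⊕ Fin d) F) : Matrix (Fin d ⊕ Fin d) (Fin d ⊕ Fin d) F) *ᵥ
            tnT e P (tens u (w j)) =
            tnT e P (tens (((A0 F : GL (Fin 2) F) : Matrix (Fin 2) (Fin 2) F) *ᵥ u) (w j)) := by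
        intro u j
        rw [tnPhi_mulVec, hkJ, kronGL_val, kron_mulVec_tens, Units.val_one, Matrix.one_mulVec]
      rw [hEval]
      apply mat_ext_single
      intro k
      rw [← Matrix.mulVec_mulVec, ← Matrix.mulVec_mulVec, hcol]
      rcases k with j | j
      · rw [Jmat_single_inl, Matrix.mulVec_smul, hcol]
        simp only [Sum.elim_inl, Sum.elim_inr]
        rw [he', hf']
        simp only
        rw [hact δ₀ j, hδ₀, A0_zero, smul_smul, inv_mul_cancel₀ (hlam0 j), one_smul]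
      · rw [Jmat_single_inr, Matrix.mulVec_smul, hcol]
        simp only [Sum.elim_inl, Sum.elim_inr]
        rw [he', hf']
        simp only
        rw [Matrix.mulVec_smul, hact δ₁ j, hδ₁, A0_one, tens_neg_left, inv_inv]
        have hneg : tnT e P (-tens (Pi.single 0 1) (w j)) =
            -tnT e P (tens (Pi.single 0 1) (w j)) := by
          have := tnT_smul e P (-1 : F) (tens (Pi.single 0 1) (w j))
          simpa using this
        rw [hneg, smul_neg, neg_smul, neg_neg]
        show (c * γ * f₂ (w j) (w j))⁻¹ • tnT e P (tens δ₀ (w j)) =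
          -(-(c * γ * f₂ (w j) (w j))⁻¹) • tnT e P (tens δ₀ (w j))
        rw [neg_neg]

end main

end Cfsg.Agent.Lib.Helper57.TSO
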