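import Mathlib
import Cfsg.Prelude.Def_GeometricClasses
import Cfsg.Prelude.Def_ClassicalGeometry
import Cfsg.Agent.Lib.Helper57.TSO.Defs
import Cfsg.Agent.Lib.Helper40.Tensor

/-!
# Project TSO (S5980): final assembly from the packages
-/

set_option autoImplicit false

namespace Cfsg.Agent.Lib.Helper57.TSO

open Matrix
open scoped Kronecker MatrixGroups

universe u

/-- rank zero means zero. -/
theorem eq_zero_of_rank_zero {F : Type u} [Field F] {ι : Type*} [Fintype ι] [DecidableEq ι]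
    (M : Matrix ι ι F) (h : M.rank = 0) : M = 0 := by
  have h1 : LinearMap.range M.mulVecLin = ⊥ := by
    apply Submodule.finrank_eq_zero.mp
    exact h
  ext i j
  have h2 : M *ᵥ (Pi.single j 1) ∈ LinearMap.range M.mulVecLin := ⟨_, rfl⟩
  rw [h1, Submodule.mem_bot] at h2
  have h3 := congrFun h2 i
  rw [Matrix.mulVec_single_one] at h3
  exact h3

/-- lower bound for the rank of `A ⊗ B - μ` for a Kronecker product which is not `μ`. -/
theorem kron_rank_lb {F : Type u} [Field F] {a b : ℕ} (A : Matrix (Fin a) (Fin a) F)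
    (B : Matrix (Fin b) (Fin b) F) (hB : B.det ≠ 0) (μ : F)
    (hne : A ⊗ₖ B ≠ μ • (1 : Matrix (Fin a × Fin b) (Fin a × Fin b) F)) :
    min a b ≤ (A ⊗ₖ B - μ • (1 : Matrix (Fin a × Fin b) (Fin a × Fin b) F)).rank := by
  by_cases hA : ∃ α : F, A = α • (1 : Matrix (Fin a) (Fin a) F)
  · obtain ⟨α, hα⟩ := hA
    have hT : A ⊗ₖ B = (1 : Matrix (Fin a) (Fin a) F) ⊗ₖ (α • B) := by
      rw [hα, Matrix.smul_kronecker, ← Matrix.kronecker_smul]
    rw [hT, Cfsg.Agent.Lib.Helper40.Tensor.one_kron_sub]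
    have hN : α • B - μ • (1 : Matrix (Fin b) (Fin b) F) ≠ 0 := by
      intro h0
      apply hne
      rw [hT]
      have h1 := Cfsg.Agent.Lib.Helper40.Tensor.one_kron_sub (a := a) (α • B) μ
      rw [h0] at h1
      have h2 : ((1 : Matrix (Fin a) (Fin a) F) ⊗ₖ (0 : Matrix (Fin b) (Fin b) F)) = 0 := by
        ext i j
        simp
      rw [h2] at h1
      exact sub_eq_zero.mp h1
    exact le_trans (min_le_left a b)
      (Cfsg.Agent.Lib.Helper40.Tensor.rank_one_kron_ge _ hN)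
  · push Not at hA
    exact le_trans (min_le_right a b)
      (Cfsg.Agent.Lib.Helper40.Tensor.rank_kron_ge A B hB hA μ)

/-- **S5980 from the packages.** -/
theorem s5980_of (hKey : PkgKey.{u}) (hWitT : PkgWitT.{u}) (hWitI : PkgWitI.{u})
    (hWitR : PkgWitR.{u}) (hNum : PkgNum.{u}) (hTrans : PkgTrans.{u}) (hScal : PkgScal.{u})
    (hBXp : PkgBXp.{u}) (hBXm : PkgBXm.{u}) (hBH : PkgBH.{u})
    {F : Type u} [Field F] [Fintype F] {p : ℕ} [Fact p.Prime] [CharP F p] {q : ℕ}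
    (hq : Fintype.card F = q)
    (hodd : Odd q) (d : ℕ) (hd : 2 ≤ d) (a b : ℕ) (hab : 2 * d = a * b) (ha : Even a)
    (ha2 : 2 ≤ a) (hb : 3 ≤ b)
    (e : (Fin d ⊕ Fin d) ≃ Fin a × Fin b) (P : GL (Fin d ⊕ Fin d) F)
    (f₁ : (Fin a → F) → (Fin a → F) → F) (f₂ : (Fin b → F) → (Fin b → F) → F)
    (hf₁ : Cfsg.Geo.IsSymplecticForm f₁) (hf₂ : Cfsg.Geo.IsSymmetricForm f₂)
    (hS : Cfsg.Geo.IsTensorFormStructure id (Cfsg.sympForm d F) f₁ f₂ e P)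
    (r : ℕ) [Fact r.Prime]
    (hΩ : r ∣ (Cfsg.Geo.tensorProductSubgroup a b e P).relIndex (Cfsg.spGL d F)) :
    (∀ x ∈ Cfsg.spGL d F, (∃ z : F, ((x ^ r : GL (Fin d ⊕ Fin d) F) :
        Matrix (Fin d ⊕ Fin d) (Fin d ⊕ Fin d) F) =
          z • (1 : Matrix (Fin d ⊕ Fin d) (Fin d ⊕ Fin d) F)) →
      (∀ z : F, (x : Matrix (Fin d ⊕ Fin d) (Fin d ⊕ Fin d) F) ≠
        z • (1 : Matrix (Fin d ⊕ Fin d) (Fin d ⊕ Fin d) F)) →
      ∃ g ∈ Cfsg.spGL d F, g⁻¹ * x * g ∈ Cfsg.Geo.tensorProductSubgroup a b e P) ↔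
      (r = 2 ∧ a = 2) := by
  classical
  have hp : p.Prime := Fact.out
  have hr : r.Prime := Fact.out
  have hp2 : p ≠ 2 := by
    intro h2
    obtain ⟨f, -, hf⟩ := FiniteField.card F p
    rw [hq] at hf
    rw [hf, h2] at hodd
    have hfpos : (f : ℕ) ≠ 0 := f.ne_zero
    exact (Nat.not_even_iff_odd.mpr hodd) ((Nat.even_pow).mpr ⟨even_two, hfpos⟩)
  have h2F : (2 : F) ≠ 0 := by
    intro h
    have h1 : ((2 : ℕ) : F) = 0 := by exact_mod_cast h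
    rw [CharP.cast_eq_zero_iff F p] at h1
    exact hp2 ((Nat.prime_dvd_prime_iff_eq hp Nat.prime_two).mp h1)
  constructor
  · intro H
    -- common consequence of `H` through the transport package
    have key : ∀ x : GL (Fin d ⊕ Fin d) F, x ∈ Cfsg.spGL d F →
        (x : Matrix (Fin d ⊕ Fin d) (Fin d ⊕ Fin d) F) ^ r = 1 →
        (∀ z : F, (x : Matrix (Fin d ⊕ Fin d) (Fin d ⊕ Fin d) F) ≠
          z • (1 : Matrix (Fin d ⊕ Fin d) (Fin d ⊕ Fin d) F)) →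
        ∃ (A : Matrix (Fin a) (Fin a) F) (B : Matrix (Fin b) (Fin b) F)
          (G₁ : Matrix (Fin a) (Fin a) F) (G₂ : Matrix (Fin b) (Fin b) F),
          A.det ≠ 0 ∧ B.det ≠ 0 ∧ G₁ ≠ 0 ∧ G₂ᵀ = G₂ ∧ G₂.det ≠ 0 ∧
          (Aᵀ * G₁ * A) ⊗ₖ (Bᵀ * G₂ * B) = G₁ ⊗ₖ G₂ ∧
          ((x : Matrix (Fin d ⊕ Fin d) (Fin d ⊕ Fin d) F) - 1).rank = (A ⊗ₖ B - 1).rank ∧
          (A ⊗ₖ B) ^ r = 1 ∧ A ⊗ₖ B ≠ 1 := by
      intro x hx hxr hns
      obtain ⟨g, hg, hmem⟩ := H x hx ⟨1, by rw [Units.val_pow_eq_pow_val, hxr, one_smul]⟩ hns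
      obtain ⟨A, B, G₁, G₂, h1, h2, h3, h4, h5, h6, h7, h8⟩ :=
        hTrans d a b (by omega) (by omega) e P f₁ f₂ hf₁ hf₂ hS x g hx hg hmem
      have h7' := h7 1
      rw [one_smul, one_smul] at h7'
      have h8' := h8 r 1 (by rw [hxr, one_smul])
      rw [one_smul] at h8'
      refine ⟨A, B, G₁, G₂, h1, h2, h3, h4, h5, h6, h7', h8', ?_⟩
      intro hAB
      rw [hAB, sub_self, Matrix.rank_zero] at h7'
      have h9 := eq_zero_of_rank_zero _ h7'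
      exact hns 1 (by rw [one_smul]; exact sub_eq_zero.mp h9)
    have hrp : r ≠ p := by
      intro hrp
      obtain ⟨x, hx, hxp, hns, hrk⟩ := hWitT (F := F) (p := p) d (by omega)
      obtain ⟨A, B, G₁, G₂, h1, h2, -, -, -, -, h7, -, h9⟩ :=
        key x hx (by rw [hrp]; exact hxp) hns
      have h10 := kron_rank_lb A B h2 1 (by rw [one_smul]; exact h9)
      rw [one_smul, ← h7] at h10
      have : 2 ≤ min a b := le_min ha2 (by omega)
      omega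
    by_cases hr2 : r = 2
    · refine ⟨hr2, ?_⟩
      by_contra ha2'
      have ha4 : 4 ≤ a := by
        obtain ⟨k, hk⟩ := ha
        omega
      obtain ⟨x, hx, hx2, hns, hrk⟩ := hWitI (F := F) h2F d hd
      obtain ⟨A, B, G₁, G₂, h1, h2, -, -, -, -, h7, -, h9⟩ :=
        key x hx (by rw [hr2]; exact hx2) hns
      have h10 := kron_rank_lb A B h2 1 (by rw [one_smul]; exact h9)
      rw [one_smul, ← h7] at h10
      have : 3 ≤ min a b := le_min (by omega) hb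
      omega
    · exfalso
      obtain ⟨s, hs1, hsd, hrs, hmin⟩ :=
        hNum (F := F) (p := p) hq d (Cfsg.Geo.tensorProductSubgroup a b e P) r hrp hΩ
      obtain ⟨x, hx, hxr, hns, hrk⟩ := hWitR (F := F) (p := p) hq d r hr2 hrp s hs1 hsd hrs
      obtain ⟨A, B, G₁, G₂, h1, h2, h3, h4, h5, h6, h7, h8, h9⟩ := key x hx hxr hns
      exact hKey (F := F) (p := p) hq hodd a b ha ha2 hb r hr2 hrp s hs1 hrs hmin A B h1 h2
        G₁ G₂ h3 h4 h5 h6 h8 h9 (by rw [← h7]; exact hrk)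
  · rintro ⟨rfl, rfl⟩
    obtain rfl : d = b := by omega
    intro x hx hz hns
    obtain ⟨z, hz⟩ := hz
    rw [Units.val_pow_eq_pow_val] at hz
    obtain ⟨E₂, κ, hE₂, hκ, hD, hJ⟩ := hBH (F := F) h2F d e P f₁ f₂ hf₁ hf₂ hS
    have conj : ∀ (E₁ : GL (Fin d ⊕ Fin d) F) (D : Matrix (Fin d ⊕ Fin d) (Fin d ⊕ Fin d) F)
        (y : GL (Fin d ⊕ Fin d) F), E₁ ∈ Cfsg.spGL d F →
        (x : Matrix (Fin d ⊕ Fin d) (Fin d ⊕ Fin d) F) *
          (E₁ : Matrix (Fin d ⊕ Fin d) (Fin d ⊕ Fin d) F) =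
          (E₁ : Matrix (Fin d ⊕ Fin d) (Fin d ⊕ Fin d) F) * D →
        (y : Matrix (Fin d ⊕ Fin d) (Fin d ⊕ Fin d) F) *
          (E₂ : Matrix (Fin d ⊕ Fin d) (Fin d ⊕ Fin d) F) =
          (E₂ : Matrix (Fin d ⊕ Fin d) (Fin d ⊕ Fin d) F) * D →
        y ∈ Cfsg.Geo.tensorProductSubgroup 2 d e P →
        ∃ g ∈ Cfsg.spGL d F, g⁻¹ * x * g ∈ Cfsg.Geo.tensorProductSubgroup 2 d e P := by
      intro E₁ D y hE₁ hxE hyE hy
      refine ⟨E₁ * E₂⁻¹, Subgroup.mul_mem _ hE₁ (Subgroup.inv_mem _ hE₂), ?_⟩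
      have hgy : (E₁ * E₂⁻¹)⁻¹ * x * (E₁ * E₂⁻¹) = y := by
        have h1 : x * E₁ * E₂⁻¹ = E₁ * E₂⁻¹ * y := by
          apply Units.ext
          simp only [Units.val_mul]
          have hE2 : (E₂ : Matrix (Fin d ⊕ Fin d) (Fin d ⊕ Fin d) F) *
              ((E₂⁻¹ : GL (Fin d ⊕ Fin d) F) : Matrix (Fin d ⊕ Fin d) (Fin d ⊕ Fin d) F) = 1 := by
            rw [← Units.val_mul, mul_inv_cancel, Units.val_one]
          have hE2' : ((E₂⁻¹ : GL (Fin d ⊕ Fin d) F) : Matrix (Fin d ⊕ Fin d) (Fin d ⊕ Fin d) F) *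
              (E₂ : Matrix (Fin d ⊕ Fin d) (Fin d ⊕ Fin d) F) = 1 := by
            rw [← Units.val_mul, inv_mul_cancel, Units.val_one]
          -- `E₂⁻¹ y = D E₂⁻¹`
          have hy' : ((E₂⁻¹ : GL (Fin d ⊕ Fin d) F) : Matrix (Fin d ⊕ Fin d) (Fin d ⊕ Fin d) F) *
              (y : Matrix (Fin d ⊕ Fin d) (Fin d ⊕ Fin d) F) =
              D * ((E₂⁻¹ : GL (Fin d ⊕ Fin d) F) : Matrix (Fin d ⊕ Fin d) (Fin d ⊕ Fin d) F) := by
            calc ((E₂⁻¹ : GL (Fin d ⊕ Fin d) F) : Matrix (Fin d ⊕ Fin d) (Fin d ⊕ Fin d) F) *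
                (y : Matrix (Fin d ⊕ Fin d) (Fin d ⊕ Fin d) F)
                = ((E₂⁻¹ : GL (Fin d ⊕ Fin d) F) : Matrix (Fin d ⊕ Fin d) (Fin d ⊕ Fin d) F) *
                  ((y : Matrix (Fin d ⊕ Fin d) (Fin d ⊕ Fin d) F) *
                    (E₂ : Matrix (Fin d ⊕ Fin d) (Fin d ⊕ Fin d) F)) *
                  ((E₂⁻¹ : GL (Fin d ⊕ Fin d) F) : Matrix (Fin d ⊕ Fin d) (Fin d ⊕ Fin d) F) := by
                  rw [mul_assoc, mul_assoc, hE2, mul_one]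
              _ = (((E₂⁻¹ : GL (Fin d ⊕ Fin d) F) : Matrix (Fin d ⊕ Fin d) (Fin d ⊕ Fin d) F) *
                  (E₂ : Matrix (Fin d ⊕ Fin d) (Fin d ⊕ Fin d) F)) * D *
                  ((E₂⁻¹ : GL (Fin d ⊕ Fin d) F) : Matrix (Fin d ⊕ Fin d) (Fin d ⊕ Fin d) F) := by
                  rw [hyE]; simp only [mul_assoc]
              _ = D * ((E₂⁻¹ : GL (Fin d ⊕ Fin d) F) :
                  Matrix (Fin d ⊕ Fin d) (Fin d ⊕ Fin d) F) := by rw [hE2', one_mul]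
          rw [hxE, mul_assoc, mul_assoc, hy']
        calc (E₁ * E₂⁻¹)⁻¹ * x * (E₁ * E₂⁻¹) = (E₁ * E₂⁻¹)⁻¹ * (x * E₁ * E₂⁻¹) := by group
          _ = (E₁ * E₂⁻¹)⁻¹ * (E₁ * E₂⁻¹ * y) := by rw [h1]
          _ = y := by group
      rw [hgy]
      exact hy
    rcases hScal (F := F) d (by omega) x hx z hz with rfl | rfl
    · rw [one_smul] at hz
      obtain ⟨E₁, ε, hE₁, hε, hxE⟩ := hBXp (F := F) h2F d x hx hz
      obtain ⟨y, hy, hyE⟩ := hD ε hε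
      exact conj E₁ _ y hE₁ hxE hyE hy
    · have hz' : (x : Matrix (Fin d ⊕ Fin d) (Fin d ⊕ Fin d) F) ^ 2 = -1 := by
        rw [hz, neg_smul, one_smul]
      have hoddF : Odd (Fintype.card F) := by rw [hq]; exact hodd
      obtain ⟨E₁, hE₁, hxE⟩ := hBXm (F := F) hoddF d x hx hz' κ hκ
      obtain ⟨y, hy, hyE⟩ := hJ
      exact conj E₁ _ y hE₁ hxE hyE hy

end Cfsg.Agent.Lib.Helper57.TSO
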