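import Mathlib
import Cfsg.Agent.Lib.Helper57.TSO.Defs
import Cfsg.Agent.Lib.Helper99.Symp

/-!
# Project TSO: package [SCAL]
-/

set_option autoImplicit false

namespace Cfsg.Agent.Lib.Helper57.TSO

open Matrix
open scoped Kronecker MatrixGroups

universe u

/-- **[SCAL]** -/
theorem pkgScal : PkgScal.{u} := by
  intro F _ _ d hd x hx z hz
  classical
  have hinv : ∀ u v : Fin d ⊕ Fin d → F,
      Cfsg.Agent.Lib.Helper99.sympB (F := F) d
        ((x : Matrix (Fin d ⊕ Fin d) (Fin d ⊕ Fin d) F) *ᵥ u)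
        ((x : Matrix (Fin d ⊕ Fin d) (Fin d ⊕ Fin d) F) *ᵥ v) =
      Cfsg.Agent.Lib.Helper99.sympB (F := F) d u v := by
    intro u v
    rw [Cfsg.Agent.Lib.Helper99.sympB_apply, Cfsg.Agent.Lib.Helper99.sympB_apply]
    exact hx u v
  have hsq : ∀ u : Fin d ⊕ Fin d → F,
      (x : Matrix (Fin d ⊕ Fin d) (Fin d ⊕ Fin d) F) *ᵥ
        ((x : Matrix (Fin d ⊕ Fin d) (Fin d ⊕ Fin d) F) *ᵥ u) = z • u := by
    intro u
    rw [Matrix.mulVec_mulVec, ← pow_two, hz, Matrix.smul_mulVec, Matrix.one_mulVec]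
  let u0 : Fin d ⊕ Fin d → F := Pi.single (Sum.inl ⟨0, by omega⟩) 1
  have hu0 : u0 ≠ 0 := by
    intro h
    have := congrFun h (Sum.inl ⟨0, by omega⟩)
    simp [u0] at this
  have h3 : ∃ v, Cfsg.Agent.Lib.Helper99.sympB (F := F) d u0 v ≠ 0 := by
    by_contra hcon
    push Not at hcon
    exact hu0 (Cfsg.Agent.Lib.Helper99.sympB_nondeg d u0 hcon)
  obtain ⟨v, hv⟩ := h3
  have h4 := hinv ((x : Matrix (Fin d ⊕ Fin d) (Fin d ⊕ Fin d) F) *ᵥ u0)
    ((x : Matrix (Fin d ⊕ Fin d) (Fin d ⊕ Fin d) F) *ᵥ v)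
  rw [hsq, hsq, hinv] at h4
  simp only [map_smul, LinearMap.smul_apply, smul_eq_mul] at h4
  have h5 : (z * z - 1) * Cfsg.Agent.Lib.Helper99.sympB (F := F) d u0 v = 0 := by
    linear_combination h4
  have hzz : z * z = 1 := sub_eq_zero.mp ((mul_eq_zero.mp h5).resolve_right hv)
  exact mul_self_eq_one_iff.mp hzz

end Cfsg.Agent.Lib.Helper57.TSO
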